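-- helper27: team project SPU (S2316), package [DEC1N] (= [DEC1] + [CONG]) and conjugation tools.
import Mathlib
import Cfsg.Agent.Lib.Helper19.SPU.Defs

set_option autoImplicit false

namespace Cfsg.Agent.Lib.Helper27.SPU

open Matrix Cfsg.Agent.Lib.Helper19.SPU

universe u

section tools

set_option linter.unusedSectionVars false

variable {F : Type u} [Field F] {α : Type} [Fintype α] [DecidableEq α]
  {β : Type} [Fintype β] [DecidableEq β]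

theorem isom_conj {S T K' K g : Matrix α α F} (hST : S * T = 1)
    (hK : Sᵀ * K' * S = K) (hg : Isom K' g) : Isom K (T * g * S) := by
  have h1 : Tᵀ * Sᵀ = 1 := by rw [← Matrix.transpose_mul, hST, Matrix.transpose_one]
  unfold Isom at hg ⊢
  rw [← hK]
  calc (T * g * S)ᵀ * (Sᵀ * K' * S) * (T * g * S)
      = Sᵀ * gᵀ * (Tᵀ * Sᵀ) * K' * (S * T) * g * S := by
        simp only [Matrix.transpose_mul, Matrix.mul_assoc]
    _ = Sᵀ * (gᵀ * K' * g) * S := by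
        rw [h1, hST]
        simp only [Matrix.mul_one, Matrix.mul_assoc]
    _ = Sᵀ * K' * S := by rw [hg]

theorem affA_conj {S T K' K X : Matrix α α F} (hST : S * T = 1)
    (hK : Sᵀ * K' * S = K) (hX : AffA K' X) : AffA K (T * X * S) := by
  have h1 : Tᵀ * Sᵀ = 1 := by rw [← Matrix.transpose_mul, hST, Matrix.transpose_one]
  unfold AffA at hX ⊢
  rw [← hK]
  calc (T * X * S)ᵀ * (Sᵀ * K' * S) + Sᵀ * K' * S * (T * X * S) + Sᵀ * K' * S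
      = Sᵀ * Xᵀ * (Tᵀ * Sᵀ) * K' * S + Sᵀ * K' * (S * T) * X * S + Sᵀ * K' * S := by
        simp only [Matrix.transpose_mul, Matrix.mul_assoc]
    _ = Sᵀ * (Xᵀ * K' + K' * X + K') * S := by
        rw [h1, hST]
        simp only [Matrix.mul_one, Matrix.mul_assoc, Matrix.mul_add, Matrix.add_mul]
    _ = 0 := by rw [hX, Matrix.mul_zero, Matrix.zero_mul]

theorem conj_pow_mul {S T : Matrix α α F} (hST : S * T = 1) (N : Matrix α α F) (k : ℕ) :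
    (T * N * S) ^ k * T = T * N ^ k := by
  induction k with
  | zero => simp
  | succ k ih =>
    rw [pow_succ, pow_succ]
    calc (T * N * S) ^ k * (T * N * S) * T = (T * N * S) ^ k * T * N * (S * T) := by
          simp only [Matrix.mul_assoc]
      _ = T * (N ^ k * N) := by rw [ih, hST, Matrix.mul_one, Matrix.mul_assoc]

theorem isNilpotent_conj {S T N : Matrix α α F} (hST : S * T = 1) (hTS : T * S = 1)
    (hN : IsNilpotent N) : IsNilpotent (T * N * S) := by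
  obtain ⟨k, hk⟩ := hN
  refine ⟨k, ?_⟩
  have h := conj_pow_mul hST N k
  rw [hk, Matrix.mul_zero] at h
  calc (T * N * S) ^ k = (T * N * S) ^ k * (T * S) := by rw [hTS, Matrix.mul_one]
    _ = 0 := by rw [← Matrix.mul_assoc, h, Matrix.zero_mul]

theorem isUnit_conj {S T A : Matrix α α F} (hST : S * T = 1) (hTS : T * S = 1)
    (hA : IsUnit A) : IsUnit (T * A * S) := by
  have hT : IsUnit T := ⟨⟨T, S, hTS, hST⟩, rfl⟩
  have hS : IsUnit S := ⟨⟨S, T, hST, hTS⟩, rfl⟩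
  exact (hT.mul hA).mul hS

theorem isSymp_fromBlocks {K₁ : Matrix α α F} {K₂ : Matrix β β F} (h₁ : IsSymp K₁)
    (h₂ : IsSymp K₂) : IsSymp (Matrix.fromBlocks K₁ 0 0 K₂) := by
  obtain ⟨ht₁, hd₁, hu₁⟩ := h₁
  obtain ⟨ht₂, hd₂, hu₂⟩ := h₂
  refine ⟨?_, ?_, ?_⟩
  · rw [Matrix.fromBlocks_transpose, ht₁, ht₂, Matrix.transpose_zero, Matrix.transpose_zero,
      Matrix.fromBlocks_neg, neg_zero, neg_zero]
  · rintro (i | i)
    · exact hd₁ i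
    · exact hd₂ i
  · rw [Matrix.isUnit_iff_isUnit_det] at hu₁ hu₂ ⊢
    rw [Matrix.det_fromBlocks_zero₁₂]
    exact hu₁.mul hu₂

/-- the change of basis `P * diag(S₁, S₂)` as an element of `GL`. -/
theorem gl_mul_blocks (P : GL (α ⊕ β) F) {S₁ T₁ : Matrix α α F} {S₂ T₂ : Matrix β β F}
    (hST₁ : S₁ * T₁ = 1) (hTS₁ : T₁ * S₁ = 1) (hST₂ : S₂ * T₂ = 1) (hTS₂ : T₂ * S₂ = 1) :
    ∃ P' : GL (α ⊕ β) F, P'.val = P.val * Matrix.fromBlocks S₁ 0 0 S₂ := by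
  have hD : Matrix.fromBlocks S₁ 0 0 S₂ * Matrix.fromBlocks T₁ 0 0 T₂ =
      (1 : Matrix (α ⊕ β) (α ⊕ β) F) := by
    rw [Matrix.fromBlocks_multiply]
    simp [hST₁, hST₂, Matrix.fromBlocks_one]
  have hD' : Matrix.fromBlocks T₁ 0 0 T₂ * Matrix.fromBlocks S₁ 0 0 S₂ =
      (1 : Matrix (α ⊕ β) (α ⊕ β) F) := by
    rw [Matrix.fromBlocks_multiply]
    simp [hTS₁, hTS₂, Matrix.fromBlocks_one]
  refine ⟨⟨P.val * Matrix.fromBlocks S₁ 0 0 S₂, Matrix.fromBlocks T₁ 0 0 T₂ * (P⁻¹).val, ?_, ?_⟩,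
    rfl⟩
  · calc P.val * Matrix.fromBlocks S₁ 0 0 S₂ * (Matrix.fromBlocks T₁ 0 0 T₂ * (P⁻¹).val)
        = P.val * (Matrix.fromBlocks S₁ 0 0 S₂ * Matrix.fromBlocks T₁ 0 0 T₂) * (P⁻¹).val := by
          simp only [Matrix.mul_assoc]
      _ = 1 := by rw [hD, Matrix.mul_one, Units.mul_inv]
  · calc Matrix.fromBlocks T₁ 0 0 T₂ * (P⁻¹).val * (P.val * Matrix.fromBlocks S₁ 0 0 S₂)
        = Matrix.fromBlocks T₁ 0 0 T₂ * ((P⁻¹).val * P.val) * Matrix.fromBlocks S₁ 0 0 S₂ := by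
          simp only [Matrix.mul_assoc]
      _ = 1 := by rw [Units.inv_mul, Matrix.mul_one, hD']

theorem isom_mul_blocks {P K : Matrix (α ⊕ β) (α ⊕ β) F} {S₁ K₁' K₁ : Matrix α α F}
    {S₂ K₂' K₂ : Matrix β β F} (hPK : Pᵀ * K * P = Matrix.fromBlocks K₁' 0 0 K₂')
    (hS₁ : S₁ᵀ * K₁' * S₁ = K₁) (hS₂ : S₂ᵀ * K₂' * S₂ = K₂) :
    (P * Matrix.fromBlocks S₁ 0 0 S₂)ᵀ * K * (P * Matrix.fromBlocks S₁ 0 0 S₂) =
      Matrix.fromBlocks K₁ 0 0 K₂ := by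
  calc (P * Matrix.fromBlocks S₁ 0 0 S₂)ᵀ * K * (P * Matrix.fromBlocks S₁ 0 0 S₂)
      = (Matrix.fromBlocks S₁ 0 0 S₂)ᵀ * (Pᵀ * K * P) * Matrix.fromBlocks S₁ 0 0 S₂ := by
        simp only [Matrix.transpose_mul, Matrix.mul_assoc]
    _ = Matrix.fromBlocks K₁ 0 0 K₂ := by
        rw [hPK, Matrix.fromBlocks_transpose, Matrix.fromBlocks_multiply,
          Matrix.fromBlocks_multiply]
        simp [hS₁, hS₂]

theorem semiconj_mul_blocks {P g : Matrix (α ⊕ β) (α ⊕ β) F} {S₁ T₁ g₁ : Matrix α α F}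
    {S₂ T₂ g₂ : Matrix β β F} (hST₁ : S₁ * T₁ = 1) (hST₂ : S₂ * T₂ = 1)
    (hgP : g * P = P * Matrix.fromBlocks g₁ 0 0 g₂) :
    g * (P * Matrix.fromBlocks S₁ 0 0 S₂) =
      P * Matrix.fromBlocks S₁ 0 0 S₂ * Matrix.fromBlocks (T₁ * g₁ * S₁) 0 0 (T₂ * g₂ * S₂) := by
  have e1 : S₁ * (T₁ * g₁ * S₁) = g₁ * S₁ := by
    rw [← Matrix.mul_assoc, ← Matrix.mul_assoc, hST₁, Matrix.one_mul]
  have e2 : S₂ * (T₂ * g₂ * S₂) = g₂ * S₂ := by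
    rw [← Matrix.mul_assoc, ← Matrix.mul_assoc, hST₂, Matrix.one_mul]
  have hE : Matrix.fromBlocks S₁ 0 0 S₂ * Matrix.fromBlocks (T₁ * g₁ * S₁) 0 0 (T₂ * g₂ * S₂) =
      Matrix.fromBlocks g₁ 0 0 g₂ * Matrix.fromBlocks S₁ 0 0 S₂ := by
    rw [Matrix.fromBlocks_multiply, Matrix.fromBlocks_multiply]
    simp only [Matrix.mul_zero, Matrix.zero_mul, add_zero, zero_add, e1, e2]
  rw [← Matrix.mul_assoc, hgP, Matrix.mul_assoc, Matrix.mul_assoc, hE]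

end tools

/-- [DEC1N] from [DEC1] and [CONG]. -/
theorem pkgDec1N_of (hDec : PkgDec1.{u}) (hCong : PkgCong.{u}) : PkgDec1N.{u} := by
  intro F _ α β _ _ _ _ K₁ K₂ g hK₁ hK₂ hg hrank
  obtain ⟨P, K₁', K₂', g₁, g₂, hK₁', hK₂', hPK, hgP, hg₁, hg₂, hn, hu⟩ :=
    hDec F α β (Matrix.fromBlocks K₁ 0 0 K₂) g (isSymp_fromBlocks hK₁ hK₂) hg hrank
  obtain ⟨S₁, T₁, hST₁, hTS₁, hS₁⟩ := hCong F α α K₁' K₁ hK₁' hK₁ rfl
  obtain ⟨S₂, T₂, hST₂, hTS₂, hS₂⟩ := hCong F β β K₂' K₂ hK₂' hK₂ rfl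
  obtain ⟨P', hP'⟩ := gl_mul_blocks P hST₁ hTS₁ hST₂ hTS₂
  refine ⟨P', T₁ * g₁ * S₁, T₂ * g₂ * S₂, ?_, ?_, isom_conj hST₁ hS₁ hg₁,
    isom_conj hST₂ hS₂ hg₂, ?_, ?_⟩
  · unfold Isom
    rw [hP']
    exact isom_mul_blocks hPK hS₁ hS₂
  · rw [hP']
    exact semiconj_mul_blocks hST₁ hST₂ hgP
  · have h : T₁ * g₁ * S₁ - 1 = T₁ * (g₁ - 1) * S₁ := by
      rw [Matrix.mul_sub, Matrix.sub_mul, Matrix.mul_one, hTS₁]
    rw [h]
    exact isNilpotent_conj hST₁ hTS₁ hn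
  · have h : T₂ * g₂ * S₂ - 1 = T₂ * (g₂ - 1) * S₂ := by
      rw [Matrix.mul_sub, Matrix.sub_mul, Matrix.mul_one, hTS₂]
    rw [h]
    exact isUnit_conj hST₂ hTS₂ hu

end Cfsg.Agent.Lib.Helper27.SPU
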