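-- helper27: team project SPU (S2316), package [DEC2N] (= [DEC2] + [CONG]).
import Mathlib
import Cfsg.Agent.Lib.Helper19.SPU.Defs
import Cfsg.Agent.Lib.Helper27.SPU.Dec1N

set_option autoImplicit false

namespace Cfsg.Agent.Lib.Helper27.SPU

open Matrix Cfsg.Agent.Lib.Helper19.SPU

universe u

/-- [DEC2N] from [DEC2] and [CONG]. -/
theorem pkgDec2N_of (hDec : PkgDec2.{u}) (hCong : PkgCong.{u}) : PkgDec2N.{u} := by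
  intro F _ α β _ _ _ _ K₁ K₂ X hK₁ hK₂ hX hrank
  obtain ⟨P, K₁', K₂', X₁, X₂, hK₁', hK₂', hPK, hXP, hX₁, hX₂, hn, hu⟩ :=
    hDec F α β (Matrix.fromBlocks K₁ 0 0 K₂) X (isSymp_fromBlocks hK₁ hK₂) hX hrank
  obtain ⟨S₁, T₁, hST₁, hTS₁, hS₁⟩ := hCong F α α K₁' K₁ hK₁' hK₁ rfl
  obtain ⟨S₂, T₂, hST₂, hTS₂, hS₂⟩ := hCong F β β K₂' K₂ hK₂' hK₂ rfl
  obtain ⟨P', hP'⟩ := gl_mul_blocks P hST₁ hTS₁ hST₂ hTS₂
  refine ⟨P', T₁ * X₁ * S₁, T₂ * X₂ * S₂, ?_, ?_, affA_conj hST₁ hS₁ hX₁,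
    affA_conj hST₂ hS₂ hX₂, ?_, isUnit_conj hST₂ hTS₂ hu⟩
  · unfold Isom
    rw [hP']
    exact isom_mul_blocks hPK hS₁ hS₂
  · rw [hP']
    exact semiconj_mul_blocks hST₁ hST₂ hXP
  · have h : T₁ * X₁ * S₁ * (T₁ * X₁ * S₁) + T₁ * X₁ * S₁ = T₁ * (X₁ * X₁ + X₁) * S₁ := by
      calc T₁ * X₁ * S₁ * (T₁ * X₁ * S₁) + T₁ * X₁ * S₁
          = T₁ * X₁ * (S₁ * T₁) * X₁ * S₁ + T₁ * X₁ * S₁ := by
            simp only [Matrix.mul_assoc]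
        _ = T₁ * (X₁ * X₁ + X₁) * S₁ := by
            rw [hST₁]
            simp only [Matrix.mul_one, Matrix.mul_assoc, Matrix.mul_add, Matrix.add_mul]
    rw [h]
    exact isNilpotent_conj hST₁ hTS₁ hn

end Cfsg.Agent.Lib.Helper27.SPU
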